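import Cfsg.Agent.H613.KS.Defs
import Cfsg.Agent.H591.QuotDefect
import Cfsg.Agent.H644.CentralQuot
import Cfsg.Agent.S0967
import Cfsg.Agent.S0908
import Cfsg.Agent.H646.DefectBasic

/-!
# S4577 (2): `HZ` passes to the quotient by a central subgroup of odd order (helper615)
-/

set_option autoImplicit false
set_option linter.unusedSectionVars false

open Cfsg Cfsg.Agent.H613.KS

universe u

namespace Cfsg.Agent.H615.KS

open Cfsg.Agent.H644.CentralQuot

variable {K : Type u} [Group K] [Finite K] {Z : Subgroup K} [Z.Normal]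

/-- inflations of characters in the same block are in the same block -/
theorem sameBlock_infl {M : Ideal AlgInt} (hM : IsPModular 2 M) {χ χ' : IrrCharacter (K ⧸ Z)}
    (h : SameBlock M (χ : K ⧸ Z → ℂ) (χ' : K ⧸ Z → ℂ)) : SameBlock M (infl Z χ : K → ℂ) (infl Z χ' : K → ℂ) := by
  have hMp : M.IsPrime := hM.2.1.isPrime
  intro g
  have e1 : centralChar (infl Z χ : K → ℂ) g = _ := Cfsg.Agent.H591.QuotDefect.centralChar_inflate Z (χ : K ⧸ Z → ℂ) g
  have e2 : centralChar (infl Z χ' : K → ℂ) g = _ := Cfsg.Agent.H591.QuotDefect.centralChar_inflate Z (χ' : K ⧸ Z → ℂ) g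
  rw [e1, e2, ← mul_sub]
  exact Cfsg.Agent.Blocks.Local.memLocalIdeal_mul_left (Cfsg.Agent.Blocks.Local.memLocalRing_natCast _) (h _)

theorem hz_odd_quot (hodd : Odd (Nat.card Z)) (h : HZ K) : HZ (K ⧸ Z) := by
  intro M hM B hB D hD h16 χ hχ
  have : Fact (Nat.Prime 2) := ⟨Nat.prime_two⟩
  have hMp : M.IsPrime := hM.2.1.isPrime
  have h2Z : ¬ 2 ∣ Nat.card Z := fun h2 => (Nat.not_even_iff_odd.2 hodd) (even_iff_two_dvd.2 h2)
  have hBχ : B = blockOf M (χ : K ⧸ Z → ℂ) := Cfsg.Agent.Blocks.Basic.isPBlock_eq_blockOf hB hχ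
  let b : Set (IrrCharacter K) := blockOf M (infl Z χ : K → ℂ)
  have hb : IsPBlock M b := ⟨infl Z χ, rfl⟩
  have hχb : infl Z χ ∈ b := Cfsg.Agent.Blocks.Basic.mem_blockOf_self _
  have hset : (fun φ : IrrCharacter K => (charDegree (φ : K → ℂ)).factorization 2) '' b =
      (fun φ : IrrCharacter (K ⧸ Z) => (charDegree (φ : K ⧸ Z → ℂ)).factorization 2) '' B := by
    ext n
    constructor
    · rintro ⟨φ, hφ, rfl⟩
      obtain ⟨φ', hφ', hs⟩ := Cfsg.Agent.S0967.result 2 M hM Z h2Z χ φ hφ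
      refine ⟨φ', by rw [hBχ]; exact hs, ?_⟩
      show (charDegree (φ' : K ⧸ Z → ℂ)).factorization 2 = (charDegree (φ : K → ℂ)).factorization 2
      rw [hφ']
      rfl
    · rintro ⟨φ, hφ, rfl⟩
      refine ⟨infl Z φ, ?_, rfl⟩
      rw [hBχ] at hφ
      exact sameBlock_infl hM hφ
  have hht : blockHeight 2 B (χ : K ⧸ Z → ℂ) = blockHeight 2 b (infl Z χ : K → ℂ) := by
    rw [Cfsg.Agent.Blocks.Basic.blockHeight_def, Cfsg.Agent.Blocks.Basic.blockHeight_def, hset, charDegree_infl]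
  have hcard : (Nat.card K).factorization 2 = (Nat.card (K ⧸ Z)).factorization 2 := by
    rw [Subgroup.card_eq_card_quotient_mul_card_subgroup Z, Nat.factorization_mul Nat.card_pos.ne' Nat.card_pos.ne',
      Finsupp.add_apply, Nat.factorization_eq_zero_of_not_dvd h2Z, add_zero]
  have hdef : blockDefect 2 b = blockDefect 2 B := by
    rw [Cfsg.Agent.Blocks.Basic.blockDefect_def, Cfsg.Agent.Blocks.Basic.blockDefect_def, hset, hcard]
  obtain ⟨P, hP⟩ := Cfsg.Agent.H646.DefectBasic.exists_isDefectGroup hM hb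
  obtain ⟨z, hz⟩ := Cfsg.Agent.H591.QuotDefect.exists_conj_le_map 2 hM Z hB hχ (ψ := infl Z χ) rfl hχb hP hD
  set P' : Subgroup K := P.map (MulAut.conj z).toMonoidHom with hP'def
  have hP' : IsDefectGroup 2 M b P' := Cfsg.Agent.Blocks.Basic.isDefectGroup_conj hP z
  have hc1 := S0908.result 2 M hM b hb P' hP'
  have hc2 := S0908.result 2 M hM B hB D hD
  rw [hdef, ← hc2, h16.card] at hc1
  have hP2 : IsPGroup 2 P' := Cfsg.Agent.Blocks.Basic.isPGroup_of_isDefectGroup hP'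
  have hDeq : D = P'.map (QuotientGroup.mk' Z) := by
    refine Subgroup.eq_of_le_of_card_ge hz ?_
    rw [h16.card, ← hc1]
    exact Nat.le_of_dvd Nat.card_pos (Subgroup.card_map_dvd _ _)
  have h16' : E16 P' := by
    refine ⟨hc1, fun d hd => ?_⟩
    have h1 : (d : K ⧸ Z) * (d : K ⧸ Z) = 1 := h16.inv _ (by rw [hDeq]; exact ⟨d, hd, rfl⟩)
    rw [← QuotientGroup.mk_mul, QuotientGroup.eq_one_iff] at h1
    have h2 : orderOf (⟨d * d, h1⟩ : Z) ∣ Nat.card Z := orderOf_dvd_natCard _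
    obtain ⟨k, hk⟩ := hP2 ⟨d * d, P'.mul_mem hd hd⟩
    have h3 : orderOf (d * d) ∣ 2 ^ k := orderOf_dvd_of_pow_eq_one (by simpa using congrArg Subtype.val hk)
    rw [Subgroup.orderOf_mk] at h2
    have h4 : orderOf (d * d) = 1 :=
      Nat.eq_one_of_dvd_coprimes (Nat.Coprime.pow_left k ((Nat.Prime.coprime_iff_not_dvd Nat.prime_two).2 h2Z)) h3 h2
    exact orderOf_eq_one_iff.1 h4
  rw [hht]
  exact h M hM b hb P' hP' h16' _ hχb

end Cfsg.Agent.H615.KS
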