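import Cfsg.Agent.H615.KS.Nil
import Cfsg.Agent.H615.KS.Odd
import Cfsg.Agent.H596.Degree
import Cfsg.Agent.Blocks.Over
import Cfsg.Agent.S4438
import Cfsg.Agent.H658.Domin

/-!
# S4577, rows `PSL`, `PSU` (3): the engine (helper615)

`engine`: `N` normal in `G`, `U` a 2-subgroup of `N` central in `G`, `4 ∤ |G : N|`; a block `B` of `N / U` with defect group
`D ≅ 2^4`; `S` a commutative 2-subgroup of `G`, `S ∩ N` the preimage of `D`, `S ≰ N`, central in the centralizer of
`S ∩ N`, with the swap condition: all members of `B` have height zero.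
-/

set_option autoImplicit false
set_option linter.unusedSectionVars false

open Cfsg Cfsg.Agent.H613.KS
open scoped Pointwise

universe u

namespace Cfsg.Agent.H615.KS

open Cfsg.Agent.H644.CentralQuot

variable {G : Type u} [Group G] [Finite G]

/-- a defect group `P` of a block of `G` with `P ∩ N = S ∩ N` is `S` -/
theorem eq_of_inf_eq {M : Ideal AlgInt} {B : Set (IrrCharacter G)} {P : Subgroup G} (hP : IsDefectGroup 2 M B P)
    (N : Subgroup G) [N.Normal] (h4 : ¬ 4 ∣ N.index) {S : Subgroup G} (hS2 : IsPGroup 2 S)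
    (hSab : ∀ x ∈ S, ∀ y ∈ S, x * y = y * x) (hSN : ¬ S ≤ N) (hPS : P ⊓ N = S ⊓ N)
    (hSC : ∀ c : G, (∀ x ∈ S, x ∈ N → c * x = x * c) → ∀ s ∈ S, c * s = s * c) : P = S := by
  have : Fact (Nat.Prime 2) := ⟨Nat.prime_two⟩
  obtain ⟨g, hg, Q, hPQ⟩ := hP
  have hP2 : IsPGroup 2 P := by rw [hPQ]; exact Q.2.map _
  have hPC : P ≤ Subgroup.centralizer ({g} : Set G) := by rw [hPQ]; exact Subgroup.map_subtype_le _
  -- `S` centralises `g`
  have hSg : S ≤ Subgroup.centralizer ({g} : Set G) := by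
    intro s hs
    rw [Subgroup.mem_centralizer_singleton_iff]
    have := hSC g (fun x hx hxN => by
      have h1 : x ∈ P := (Subgroup.mem_inf.1 (by rw [hPS]; exact ⟨hx, hxN⟩ : x ∈ P ⊓ N)).1
      exact (Subgroup.mem_centralizer_singleton_iff.1 (hPC h1)).symm) s hs
    exact this.symm
  -- the orders
  have hidx : ∀ {R : Subgroup G}, IsPGroup 2 R → Nat.card R ∣ Nat.card (R ⊓ N : Subgroup G) * 2 := by
    intro R hR
    have h1 : N.relIndex R ∣ N.index := Subgroup.relIndex_dvd_index_of_normal N R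
    obtain ⟨k, hk⟩ := (IsPGroup.iff_card.1 hR)
    have h2 : N.relIndex R ∣ 2 ^ k := by rw [← hk]; exact Subgroup.index_dvd_card _
    obtain ⟨j, -, hj⟩ := (Nat.dvd_prime_pow Nat.prime_two).1 h2
    have hj1 : j ≤ 1 := by
      by_contra hcon
      apply h4
      have h3 : 2 ^ 2 ∣ 2 ^ j := pow_dvd_pow 2 (by omega)
      rw [← hj] at h3
      exact h3.trans h1
    have h5 : Nat.card R = Nat.card (R ⊓ N : Subgroup G) * N.relIndex R := by
      have h6 := Subgroup.card_mul_index (N.subgroupOf R)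
      have h7 : Nat.card (N.subgroupOf R) = Nat.card (R ⊓ N : Subgroup G) := by
        rw [inf_comm, ← Subgroup.subgroupOf_map_subtype]
        exact (Nat.card_congr ((N.subgroupOf R).equivMapOfInjective R.subtype R.subtype_injective).toEquiv)
      rw [h7] at h6
      exact h6.symm
    rw [h5, hj]
    exact Nat.mul_dvd_mul_left _ (by
      have := pow_dvd_pow 2 hj1
      rwa [pow_one] at this)
  have hcard : Nat.card P ≤ Nat.card S := by
    have h1 := Nat.le_of_dvd (by have := Nat.card_pos (α := (P ⊓ N : Subgroup G)); omega) (hidx hP2)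
    rw [hPS] at h1
    have h2 : Nat.card (S ⊓ N : Subgroup G) ∣ Nat.card S := Subgroup.card_dvd_of_le inf_le_left
    obtain ⟨m, hm⟩ := h2
    have hm1 : m ≠ 1 := by
      rintro rfl
      rw [mul_one] at hm
      exact hSN (inf_eq_left.1 (Subgroup.eq_of_le_of_card_ge inf_le_left hm.le))
    have hm0 : m ≠ 0 := by
      rintro rfl
      rw [mul_zero] at hm
      exact Nat.card_pos.ne' hm
    calc Nat.card P ≤ Nat.card (S ⊓ N : Subgroup G) * 2 := h1
      _ ≤ Nat.card (S ⊓ N : Subgroup G) * m := Nat.mul_le_mul_left _ (by omega)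
      _ = Nat.card S := hm.symm
  -- a conjugate of `S` lies in `P`
  have hS' : IsPGroup 2 (S.subgroupOf (Subgroup.centralizer ({g} : Set G))) :=
    hS2.comap_of_injective _ (Subgroup.subtype_injective _)
  obtain ⟨R, hR⟩ := hS'.exists_le_sylow
  have hRcard : Nat.card R = Nat.card Q := by rw [R.card_eq_multiplicity, Q.card_eq_multiplicity]
  have hQP : Nat.card Q = Nat.card P := by
    rw [hPQ]
    exact (Nat.card_congr ((Q : Subgroup (Subgroup.centralizer ({g} : Set G))).equivMapOfInjective _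
      (Subgroup.subtype_injective _)).toEquiv)
  have hScard : Nat.card (S.subgroupOf (Subgroup.centralizer ({g} : Set G))) = Nat.card S :=
    Nat.card_congr (Subgroup.subgroupOfEquivOfLe hSg).toEquiv
  have hSR : S.subgroupOf (Subgroup.centralizer ({g} : Set G)) = (R : Subgroup _) := by
    refine Subgroup.eq_of_le_of_card_ge hR ?_
    rw [hScard]
    have h1 : Nat.card (R : Subgroup (Subgroup.centralizer ({g} : Set G))) = Nat.card P := by
      rw [← hQP]; exact hRcard
    rw [h1]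
    exact hcard
  -- `P` is commutative
  obtain ⟨c, hc⟩ := MulAction.exists_smul_eq (Subgroup.centralizer ({g} : Set G)) R Q
  have hPab : ∀ x ∈ P, ∀ y ∈ P, x * y = y * x := by
    have h1 : ∀ x ∈ P, (c : G)⁻¹ * x * c ∈ S := by
      intro x hx
      rw [hPQ] at hx
      obtain ⟨x', hx', rfl⟩ := hx
      rw [← hc] at hx'
      have h2 : c⁻¹ * x' * c ∈ (R : Subgroup (Subgroup.centralizer ({g} : Set G))) := by
        have h3 := Subgroup.mem_pointwise_smul_iff_inv_smul_mem.1
          (show x' ∈ MulAut.conj c • (R : Subgroup (Subgroup.centralizer ({g} : Set G))) from hx')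
        rw [← map_inv, MulAut.smul_def, MulAut.conj_apply, inv_inv] at h3
        exact h3
      rw [← hSR] at h2
      exact h2
    intro x hx y hy
    have h2 := hSab _ (h1 x hx) _ (h1 y hy)
    have h3 : (c : G)⁻¹ * (x * y) * c = (c : G)⁻¹ * (y * x) * c := by
      calc (c : G)⁻¹ * (x * y) * c = ((c : G)⁻¹ * x * c) * ((c : G)⁻¹ * y * c) := by group
        _ = ((c : G)⁻¹ * y * c) * ((c : G)⁻¹ * x * c) := h2
        _ = _ := by group
    exact mul_left_cancel (mul_right_cancel h3)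
  -- `P` commutes with `S`
  have hPS' : ∀ x ∈ P, ∀ s ∈ S, x * s = s * x := fun x hx => hSC x fun y hy hyN =>
    hPab x hx y (Subgroup.mem_inf.1 (by rw [hPS]; exact ⟨hy, hyN⟩ : y ∈ P ⊓ N)).1
  -- `P ⊔ S` is a 2-group
  have hsup : IsPGroup 2 (P ⊔ S : Subgroup G) := by
    refine IsPGroup.to_sup_of_normal_left' hP2 hS2 ?_
    intro s hs
    rw [Subgroup.mem_normalizer_iff]
    intro x
    constructor
    · intro hx
      rw [← hPS' x hx s hs, mul_inv_cancel_right]
      exact hx
    · intro hx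
      have h1 := hPS' _ hx s hs
      have h2 : s * x * s⁻¹ * s = s * (x) := by group
      have h3 : s * (s * x * s⁻¹) = s * x := by rw [← h1, h2]
      rw [mul_left_cancel h3] at hx
      exact hx
  have hle : (P ⊔ S : Subgroup G) ≤ Subgroup.centralizer ({g} : Set G) := sup_le hPC hSg
  have hQle : (Q : Subgroup (Subgroup.centralizer ({g} : Set G))) ≤
      (P ⊔ S : Subgroup G).subgroupOf (Subgroup.centralizer ({g} : Set G)) := by
    intro x hx
    rw [Subgroup.mem_subgroupOf]
    exact Subgroup.mem_sup_left (by rw [hPQ]; exact ⟨x, hx, rfl⟩)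
  have hQeq := Q.is_maximal' (hsup.comap_of_injective _ (Subgroup.subtype_injective _)) hQle
  have hSP : S ≤ P := by
    intro s hs
    have h1 : (⟨s, hSg hs⟩ : Subgroup.centralizer ({g} : Set G)) ∈
        (P ⊔ S : Subgroup G).subgroupOf (Subgroup.centralizer ({g} : Set G)) := by
      rw [Subgroup.mem_subgroupOf]
      exact Subgroup.mem_sup_right hs
    have h2 : (⟨s, hSg hs⟩ : Subgroup.centralizer ({g} : Set G)) ∈
        (Q : Subgroup (Subgroup.centralizer ({g} : Set G))) := by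
      rw [← hQeq]; exact h1
    rw [hPQ]
    exact ⟨_, h2, rfl⟩
  exact (Subgroup.eq_of_le_of_card_ge hSP hcard).symm

/-- **The engine.** -/
theorem engine (N : Subgroup G) [N.Normal] (U : Subgroup ↥N) [U.Normal] (hU : ∀ z ∈ U, ∀ g : G, g * (z : G) = z * g)
    (hU2 : IsPGroup 2 U) (h4 : ¬ 4 ∣ N.index) {M : Ideal AlgInt} (hM : IsPModular 2 M)
    {B : Set (IrrCharacter (↥N ⧸ U))} (hB : IsPBlock M B) {D : Subgroup (↥N ⧸ U)} (hD : IsDefectGroup 2 M B D)
    (h16 : E16 D) {S : Subgroup G} (hS2 : IsPGroup 2 S) (hSab : ∀ x ∈ S, ∀ y ∈ S, x * y = y * x)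
    (hSD : ∀ x : ↥N, (x : G) ∈ S ↔ (x : ↥N ⧸ U) ∈ D) (hSN : ¬ S ≤ N)
    (hSC : ∀ c : G, (∀ x ∈ S, x ∈ N → c * x = x * c) → ∀ s ∈ S, c * s = s * c)
    (H : Swap S) : ∀ χ ∈ B, blockHeight 2 B (χ : ↥N ⧸ U → ℂ) = 0 := by
  intro χ hχ
  have : Fact (Nat.Prime 2) := ⟨Nat.prime_two⟩
  have hMp : M.IsPrime := hM.2.1.isPrime
  have hUc : U ≤ Subgroup.center ↥N := fun z hz => Subgroup.mem_center_iff.2 fun n => Subtype.ext (hU z hz n)
  have := Fintype.ofFinite G
  have := Fintype.ofFinite ↥N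
  -- the block of `N`
  let b : Set (IrrCharacter ↥N) := blockOf M (infl U χ : ↥N → ℂ)
  have hb : IsPBlock M b := ⟨infl U χ, rfl⟩
  have hχb : infl U χ ∈ b := Cfsg.Agent.Blocks.Basic.mem_blockOf_self _
  have hdefl : defl U b = B :=
    Cfsg.Agent.Blocks.Basic.isPBlock_eq_of_mem (isPBlock_defl hM hUc hU2 hb) hB (χ := χ) hχb hχ
  -- its defect group
  obtain ⟨P₀, hP₀⟩ := Cfsg.Agent.H646.DefectBasic.exists_isDefectGroup hM hb
  have h0 := Cfsg.Agent.H658.isDefectGroup_defl hM hUc hU2 hb hP₀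
  rw [hdefl] at h0
  obtain ⟨t, ht⟩ := Cfsg.Agent.H644.exists_conj_of_isDefectGroup hM hB h0.2 hD
  obtain ⟨n, rfl⟩ := QuotientGroup.mk_surjective t
  set P₁ : Subgroup ↥N := P₀.map (MulAut.conj n).toMonoidHom with hP₁def
  have hP₁ : IsDefectGroup 2 M b P₁ := Cfsg.Agent.Blocks.Basic.isDefectGroup_conj hP₀ n
  have h1 := Cfsg.Agent.H658.isDefectGroup_defl hM hUc hU2 hb hP₁
  have hP₁D : P₁.map (QuotientGroup.mk' U) = D := by
    rw [← ht, hP₁def, Subgroup.map_map, Subgroup.map_map]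
    congr 1
  have hP₁mem : ∀ x : ↥N, x ∈ P₁ ↔ (x : G) ∈ S := by
    intro x
    rw [hSD x, ← hP₁D]
    constructor
    · intro hx
      exact ⟨x, hx, rfl⟩
    · rintro ⟨y, hy, hxy⟩
      have h2 : y⁻¹ * x ∈ U := QuotientGroup.eq.1 hxy
      have h3 : x = y * (y⁻¹ * x) := by group
      rw [h3]
      exact P₁.mul_mem hy (h1.1 h2)
  -- the block of `G`
  obtain ⟨X, hX⟩ := Cfsg.Agent.Blocks.Over.exists_over N (infl U χ)
  let BX : Set (IrrCharacter G) := blockOf M (X : G → ℂ)
  have hBX : IsPBlock M BX := ⟨X, rfl⟩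
  have hXB : X ∈ BX := Cfsg.Agent.Blocks.Basic.mem_blockOf_self _
  have hsub : (P₁.map N.subtype).subgroupOf N = P₁ := by
    ext x
    rw [Subgroup.mem_subgroupOf]
    constructor
    · rintro ⟨y, hy, hxy⟩
      rwa [← Subtype.ext hxy]
    · intro hx
      exact ⟨x, hx, rfl⟩
  obtain ⟨P, hP, hPN⟩ := Cfsg.Agent.S4438.result 2 M hM N b hb (P₁.map N.subtype) (Subgroup.map_subtype_le _)
    (by rw [hsub]; exact hP₁) BX hBX ⟨X, hXB, infl U χ, hχb, hX⟩
  have hPS : P ⊓ N = S ⊓ N := by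
    rw [hPN]
    ext x
    constructor
    · rintro ⟨y, hy, rfl⟩
      exact ⟨(hP₁mem y).1 hy, y.2⟩
    · rintro ⟨hxS, hxN⟩
      exact ⟨⟨x, hxN⟩, (hP₁mem ⟨x, hxN⟩).2 hxS, rfl⟩
  have hPeq : P = S := eq_of_inf_eq hP N h4 hS2 hSab hSN hPS hSC
  rw [hPeq] at hP
  have hdeg := deg_of_swap hM hBX hP hSab H X hXB
  -- the degrees
  have hdvd := (Cfsg.Agent.H596.charDegree_dvd_of_over N X.2 (infl U χ).2 hX).1
  have hle : (charDegree (χ : ↥N ⧸ U → ℂ)).factorization 2 ≤ (charDegree (X : G → ℂ)).factorization 2 := by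
    have h2 := (Nat.factorization_le_iff_dvd (Cfsg.Agent.Blocks.Knorr.charDegree_ne_zero (infl U χ).2)
      (Cfsg.Agent.Blocks.Knorr.charDegree_ne_zero X.2)).2 hdvd 2
    exact h2
  -- the orders
  have hG : (Nat.card G).factorization 2 = (Nat.card ↥N).factorization 2 + N.index.factorization 2 := by
    rw [← Subgroup.card_mul_index N, Nat.factorization_mul Nat.card_pos.ne' Subgroup.index_ne_zero_of_finite,
      Finsupp.add_apply]
  have hidx : N.index.factorization 2 ≤ 1 := by
    by_contra hcon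
    apply h4
    exact (Nat.prime_two.pow_dvd_iff_le_factorization Subgroup.index_ne_zero_of_finite (k := 2)).2 (by omega)
  have hN : (Nat.card ↥N).factorization 2 = (Nat.card (↥N ⧸ U)).factorization 2 + (Nat.card U).factorization 2 := by
    rw [Subgroup.card_eq_card_quotient_mul_card_subgroup U, Nat.factorization_mul Nat.card_pos.ne' Nat.card_pos.ne',
      Finsupp.add_apply]
  have hP₁comap : P₁ = D.comap (QuotientGroup.mk' U) := by
    ext x
    rw [hP₁mem x, hSD x]
    rfl
  have hP₁card : Nat.card P₁ = 16 * Nat.card U := by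
    have h2 := Subgroup.index_comap_of_surjective D (QuotientGroup.mk'_surjective U)
    have h3 := Subgroup.card_mul_index P₁
    have h5 := Subgroup.card_mul_index D
    have h6 := Subgroup.card_eq_card_quotient_mul_card_subgroup U
    rw [hP₁comap, h2, ← hP₁comap, h6, ← h5, h16.card] at h3
    have h7 : 0 < D.index := Nat.pos_of_ne_zero Subgroup.index_ne_zero_of_finite
    have h8 : Nat.card P₁ * D.index = 16 * Nat.card U * D.index := by rw [h3]; ring
    exact Nat.eq_of_mul_eq_mul_right h7 h8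
  have hScard : (Nat.card S).factorization 2 ≥ 5 + (Nat.card U).factorization 2 := by
    obtain ⟨u, hu⟩ := IsPGroup.iff_card.1 hU2
    obtain ⟨s, hs⟩ := IsPGroup.iff_card.1 hS2
    have h2 : Nat.card (S ⊓ N : Subgroup G) = 2 ^ (4 + u) := by
      rw [← hPS, hPN, ← Nat.card_congr (P₁.equivMapOfInjective N.subtype N.subtype_injective).toEquiv, hP₁card, hu,
        pow_add]
      norm_num
    have h3 : Nat.card (S ⊓ N : Subgroup G) < Nat.card S := by
      by_contra hcon
      exact hSN (inf_eq_left.1 (Subgroup.eq_of_le_of_card_ge inf_le_left (not_lt.1 hcon)))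
    rw [h2, hs] at h3
    have h5 := (Nat.pow_lt_pow_iff_right (by norm_num : 1 < 2)).1 h3
    rw [hs, hu, Nat.prime_two.factorization_pow, Nat.prime_two.factorization_pow, Finsupp.single_eq_same,
      Finsupp.single_eq_same]
    omega
  have hdef : (Nat.card (↥N ⧸ U)).factorization 2 = blockDefect 2 B +
      sInf ((fun ψ : IrrCharacter (↥N ⧸ U) => (charDegree (ψ : ↥N ⧸ U → ℂ)).factorization 2) '' B) := by
    have h2 : sInf ((fun ψ : IrrCharacter (↥N ⧸ U) => (charDegree (ψ : ↥N ⧸ U → ℂ)).factorization 2) '' B) ≤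
        (charDegree (χ : ↥N ⧸ U → ℂ)).factorization 2 := Nat.sInf_le ⟨χ, hχ, rfl⟩
    have h3 : (charDegree (χ : ↥N ⧸ U → ℂ)).factorization 2 ≤ (Nat.card (↥N ⧸ U)).factorization 2 :=
      (Nat.factorization_le_iff_dvd (Cfsg.Agent.Blocks.Knorr.charDegree_ne_zero χ.2) Nat.card_pos.ne').2
        (Cfsg.Agent.Blocks.Knorr.charDegree_dvd χ.2) 2
    rw [Cfsg.Agent.Blocks.Basic.blockDefect_def]
    omega
  have hc := S0908.result 2 M hM B hB D hD
  have h4' : blockDefect 2 B = 4 := by
    rw [h16.card] at hc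
    have h5 : (2 : ℕ) ^ 4 = 2 ^ blockDefect 2 B := by rw [← hc]; norm_num
    exact (Nat.pow_right_injective le_rfl h5).symm
  rw [Cfsg.Agent.Blocks.Basic.blockHeight_def]
  omega

end Cfsg.Agent.H615.KS
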