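import Cfsg.Agent.H640.KS.Canon
import Cfsg.Agent.H642.F1
import Cfsg.Agent.Blocks.Knorr

/-!
# S4577, rows `PSL`, `PSU` (1): a swap criterion for equal degrees (helper615)

`deg_of_swap`: `B` a 2-block with abelian defect group `S`; if for each character `θ` of `C(S)` fixed by some element of
`N(S) ∖ C(S)` there is a 2-element of `N(S) ∖ C(S)` fixing `θ`, then `χ(1)_2 |S| = |G|_2` for every `χ ∈ B`.
-/

set_option autoImplicit false
set_option linter.unusedSectionVars false

open Cfsg

universe u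

namespace Cfsg.Agent.H615.KS

open Cfsg.Agent.H644 Cfsg.Agent.H686.PairCrit

local notation "Cn(" Q ")" => Subgroup.centralizer ((Q : Subgroup _) : Set _)

variable {G : Type u} [Group G] [Finite G]

/-- `g` fixes the character `θ` of `C_G(S)` -/
def Fix (S : Subgroup G) (θ : IrrCharacter ↥(Subgroup.centralizer (S : Set G))) (g : G) : Prop :=
  ∀ e e' : ↥(Subgroup.centralizer (S : Set G)), (e' : G) = g * e * g⁻¹ →
    (θ : ↥(Subgroup.centralizer (S : Set G)) → ℂ) e' = (θ : ↥(Subgroup.centralizer (S : Set G)) → ℂ) e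

/-- **The swap condition** (p = 2) -/
def Swap (S : Subgroup G) : Prop :=
  ∀ (θ : IrrCharacter ↥(Subgroup.centralizer (S : Set G))) (g : G), g ∈ Subgroup.normalizer (S : Set G) →
    g ∉ Subgroup.centralizer (S : Set G) → Fix S θ g →
    ∃ t : G, t ∈ Subgroup.normalizer (S : Set G) ∧ (∃ k : ℕ, orderOf t = 2 ^ k) ∧
      t ∉ Subgroup.centralizer (S : Set G) ∧ Fix S θ t

theorem stab_le_of_swap {M : Ideal AlgInt} [M.IsPrime] (hM : IsPModular 2 M) {B : Set (IrrCharacter G)}
    {S : Subgroup G} (hab : ∀ x ∈ S, ∀ y ∈ S, x * y = y * x) (H : Swap S)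
    {e : Set (IrrCharacter ↥(Subgroup.centralizer (S : Set G)))} (hmax : IsMaximalBrauerPair 2 M B S e) :
    pairStab M S e ≤ Subgroup.centralizer (S : Set G) := by
  have : Fact (Nat.Prime 2) := ⟨Nat.prime_two⟩
  intro g hg
  by_contra hgC
  have hePB : IsPBlock M e := hmax.1.1.2
  obtain ⟨hgN, hgst⟩ := (mem_pairStab_iff_stabilizesBlock hM hePB).1 hg
  obtain ⟨θ, hθc, hker, hdeg, hcl⟩ := crit_mp hM hmax
  have hDC : S ≤ Subgroup.centralizer (S : Set G) := fun x hx =>
    Subgroup.mem_centralizer_iff.2 fun z hz => hab z hz x hx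
  have hinf : S ⊓ Subgroup.centralizer (S : Set G) = S := inf_eq_left.2 hDC
  have hDZ : S.subgroupOf (Subgroup.centralizer (S : Set G)) ≤ Subgroup.center (Subgroup.centralizer (S : Set G)) :=
    subgroupOf_le_center S
  have hDp : IsPGroup 2 (S.subgroupOf (Subgroup.centralizer (S : Set G))) :=
    hmax.1.1.1.comap_of_injective (Subgroup.centralizer (S : Set G)).subtype
      (Subgroup.centralizer (S : Set G)).subtype_injective
  have hidx := card_index (p := 2) S
  rw [card_subgroupOf_eq, hinf] at hidx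
  rw [hinf] at hdeg
  have hdeg' : (charDegree (θ : (Subgroup.centralizer (S : Set G)) → ℂ)).factorization 2 =
      (S.subgroupOf (Subgroup.centralizer (S : Set G))).index.factorization 2 := by
    have h1 : (Nat.card S).factorization 2 + (S.subgroupOf (Subgroup.centralizer (S : Set G))).index.factorization 2 =
      (Nat.card (Subgroup.centralizer (S : Set G))).factorization 2 := hidx
    omega
  have hdef := (S0969.result 2 M hM (S.subgroupOf (Subgroup.centralizer (S : Set G))) hDp hDZ θ hdeg').1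
  have hbl : blockOf M (θ : (Subgroup.centralizer (S : Set G)) → ℂ) = e :=
    (Cfsg.Agent.Blocks.Basic.isPBlock_eq_blockOf hePB hθc).symm
  rw [hbl] at hdef
  have hGD : S.subgroupOf (Subgroup.centralizer (S : Set G)) ⊔
      Subgroup.centralizer (S.subgroupOf (Subgroup.centralizer (S : Set G)) :
        Set (Subgroup.centralizer (S : Set G))) = ⊤ := by
    rw [centralizer_eq_top_of_le_center hDZ, sup_top_eq]
  obtain ⟨⟨θ0, -, huniq⟩, -, -⟩ := S0968.result 2 M hM _ hDp hGD e hePB hdef
  have hθ0 : θ = θ0 := huniq θ ⟨hθc, fun z hz => hker z hz⟩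
  subst hθ0
  -- `g` fixes `θ`
  have hfix : Fix S θ g := by
    intro a a' ha
    obtain ⟨θ', hθ', hconj⟩ := hgst.2 θ hθc
    have h1 : θ' = θ := huniq θ' ⟨hθ', fun z hz => by
      have hz' : ((z : (Subgroup.centralizer (S : Set G))) : G) ∈ S := hz
      have h2 : g⁻¹ * z * g ∈ S := by
        have := (Subgroup.mem_normalizer_iff.1 (inv_mem hgN) (z : G)).1 hz'
        rwa [inv_inv] at this
      have h3 := hconj ⟨g⁻¹ * z * g, hDC h2⟩ z (by
        show (z : G) = g * (g⁻¹ * z * g) * g⁻¹
        group)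
      have h4 := hconj 1 1 (by simp)
      rw [h3, h4]
      exact hker _ h2⟩
    have h2 := hconj a a' ha
    rwa [h1] at h2
  obtain ⟨t, htN, ht2, htC, htfix⟩ := H θ g hgN hgC hfix
  have htC' := Cfsg.Agent.H649.mem_normalizer_centralizer htN
  have h1 := hcl t htN (Cfsg.Agent.H640.KS.stab_of_fix hePB hθc htC' htfix) ht2
  rw [sup_eq_right.2 hDC] at h1
  exact htC h1

/-- equal degrees: height zero -/
theorem deg_of_swap {M : Ideal AlgInt} (hM : IsPModular 2 M) {B : Set (IrrCharacter G)} (hB : IsPBlock M B)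
    {S : Subgroup G} (hS : IsDefectGroup 2 M B S) (hab : ∀ x ∈ S, ∀ y ∈ S, x * y = y * x) (H : Swap S) :
    ∀ χ ∈ B, (charDegree (χ : G → ℂ)).factorization 2 + (Nat.card S).factorization 2 =
      (Nat.card G).factorization 2 := by
  have : Fact (Nat.Prime 2) := ⟨Nat.prime_two⟩
  have := Fintype.ofFinite G
  have hMp : M.IsPrime := hM.2.1.isPrime
  obtain ⟨e, he⟩ := exists_pair_of_le_isDefectGroup hM hB hS le_rfl
  have hmax := isMaximalBrauerPair_of_isDefectGroup hM he hS
  have hst := stab_le_of_swap hM hab H hmax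
  obtain ⟨-, -, -, heq⟩ := Cfsg.Agent.H642.F1.data hM he hS hab hst
  intro χ hχ
  have hcard := S0908.result 2 M hM B hB S hS
  have hd : ∀ ψ ∈ B, charDegree (ψ : G → ℂ) = charDegree (χ : G → ℂ) := by
    intro ψ hψ
    have h1 := heq ψ hψ χ hχ 1 (by rw [orderOf_one]; norm_num)
    rw [Cfsg.Agent.Blocks.Basic.charDegree_def, Cfsg.Agent.Blocks.Basic.charDegree_def, h1]
  have hinf : sInf ((fun ψ : IrrCharacter G => (charDegree (ψ : G → ℂ)).factorization 2) '' B) =
      (charDegree (χ : G → ℂ)).factorization 2 := by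
    have h1 : (fun ψ : IrrCharacter G => (charDegree (ψ : G → ℂ)).factorization 2) '' B =
        {(charDegree (χ : G → ℂ)).factorization 2} := by
      ext n
      rw [Set.mem_singleton_iff]
      constructor
      · rintro ⟨ψ, hψ, rfl⟩
        show (charDegree (ψ : G → ℂ)).factorization 2 = _
        rw [hd ψ hψ]
      · rintro rfl
        exact ⟨χ, hχ, rfl⟩
    rw [h1, csInf_singleton]
  rw [Cfsg.Agent.Blocks.Basic.blockDefect_def, hinf] at hcard
  have h4 : (charDegree (χ : G → ℂ)).factorization 2 ≤ (Nat.card G).factorization 2 :=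
    (Nat.factorization_le_iff_dvd (Cfsg.Agent.Blocks.Knorr.charDegree_ne_zero χ.2) Nat.card_pos.ne').2
      (Cfsg.Agent.Blocks.Knorr.charDegree_dvd χ.2) 2
  rw [hcard, Nat.prime_two.factorization_pow, Finsupp.single_eq_same]
  omega

end Cfsg.Agent.H615.KS
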